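import Mathlib
import Cfsg.Agent.Lib.Helper75.LW.Defs45

/-!
# LW45 (S0745) package [E7]: no sharply 3-transitive group of degree 7

The stabiliser of a point `c` is a Frobenius group of order 42 on the other six points, with
kernel `F` of order 6 and complement `K` of order 5 acting freely on `F ∖ {1}`; so all five
nonidentity elements of `F` are conjugate, contradicting Cauchy for the primes 2 and 3.
-/

set_option autoImplicit false

namespace Cfsg.Agent.Lib.Helper59.LW

open Cfsg.Agent.Lib.Helper75.LW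

universe u

/-- [E7] -/
theorem pkgE7 (hKer : PkgKer.{u}) (hCntT : PkgCntT.{u}) (hMono : PkgMono.{u})
    (hExt : PkgExt.{u}) : PkgE7.{u} := by
  intro α _ _ G hT3 hTriv hn
  obtain ⟨c, x, hcx⟩ : ∃ c x : α, c ≠ x :=
    Fintype.exists_pair_of_one_lt_card (by omega)
  have hT2 : HT G 2 := hMono G 2 3 (by norm_num) (by omega) hT3
  obtain ⟨s3, -, hs3⟩ := Finset.exists_subset_card_eq (s := (Finset.univ : Finset α)) (n := 3)
    (by rw [Finset.card_univ]; omega)
  have hPS3 : Nat.card (PS G s3) = 1 := by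
    have h : PS G s3 = ⊥ := by
      rw [Subgroup.eq_bot_iff_forall]
      intro g hg
      exact hTriv s3 hs3 g (mem_PS.mp hg).1 (mem_PS.mp hg).2
    rw [h]; exact Subgroup.card_bot
  have e3 := hCntT G 3 s3 hs3 hT3
  have e2 := hCntT G 2 {c, x} (Finset.card_pair hcx) hT2
  rw [hn] at e2 e3
  rw [hPS3] at e3
  have d2 : (7 : ℕ).descFactorial 2 = 42 := by decide
  have d3 : (7 : ℕ).descFactorial 3 = 210 := by decide
  rw [d2] at e2
  rw [d3] at e3
  obtain ⟨K, hK⟩ : ∃ K : Subgroup (Equiv.Perm α), K = PS G {c, x} := ⟨_, rfl⟩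
  rw [← hK] at e2
  have hK5 : Nat.card K = 5 := by omega
  have hmemK : ∀ g, g ∈ K ↔ g ∈ G ∧ g c = c ∧ g x = x := by
    intro g
    rw [hK, mem_PS]
    constructor
    · rintro ⟨hg, h⟩
      exact ⟨hg, h c (by simp), h x (by simp)⟩
    · rintro ⟨hg, h1, h2⟩
      refine ⟨hg, fun p hp => ?_⟩
      rcases Finset.mem_insert.mp hp with h | h
      · rw [h]; exact h1
      · rw [Finset.mem_singleton.mp h]; exact h2
  -- the hypotheses of [KER] for `Λ₀ = {c}`
  have h1 : x ∉ ({c} : Finset α) := by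
    rw [Finset.mem_singleton]; exact fun h => hcx h.symm
  have h2 : ∀ y : α, y ∉ ({c} : Finset α) →
      ∃ g ∈ G, (∀ p ∈ ({c} : Finset α), g p = p) ∧ g x = y := by
    intro y hy
    have hyc : y ≠ c := fun h => hy (Finset.mem_singleton.mpr h)
    obtain ⟨g, hg, hga⟩ := hExt G 2 {c, x} (fun a => if a = x then y else a)
      (Finset.card_pair hcx) hT2 (by
        intro a ha b hb hab
        simp only [Finset.coe_insert, Finset.coe_singleton, Set.mem_insert_iff,
          Set.mem_singleton_iff] at ha hb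
        rcases ha with ha | ha <;> rcases hb with hb | hb
        · rw [ha, hb]
        · rw [ha, hb] at hab
          simp only [if_neg hcx, if_true] at hab
          exact absurd hab.symm hyc
        · rw [ha, hb] at hab
          simp only [if_neg hcx, if_true] at hab
          exact absurd hab hyc
        · rw [ha, hb])
    refine ⟨g, hg, fun p hp => ?_, ?_⟩
    · rw [Finset.mem_singleton.mp hp]
      have h := hga c (by simp)
      simp only [if_neg hcx] at h
      exact h
    · have h := hga x (by simp)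
      simp only [if_true] at h
      exact h
  have h3 : ∀ g ∈ G, (∀ p ∈ ({c} : Finset α), g p = p) → ∀ y z : α, y ∉ ({c} : Finset α) →
      z ∉ ({c} : Finset α) → y ≠ z → g y = y → g z = z → g = 1 := by
    intro g hg hgc y z hy hz hyz hgy hgz
    have hyc : c ≠ y := fun h => hy (Finset.mem_singleton.mpr h.symm)
    have hzc : c ≠ z := fun h => hz (Finset.mem_singleton.mpr h.symm)
    have hc3 : ({c, y, z} : Finset α).card = 3 := by
      rw [Finset.card_eq_three]; exact ⟨c, y, z, hyc, hzc, hyz, rfl⟩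
    apply hTriv {c, y, z} hc3 g hg
    intro a ha
    simp only [Finset.mem_insert, Finset.mem_singleton] at ha
    rcases ha with ha | ha | ha
    · rw [ha]; exact hgc c (Finset.mem_singleton_self c)
    · rw [ha]; exact hgy
    · rw [ha]; exact hgz
  have hKne : K ≠ ⊥ := by
    intro h
    rw [h, Subgroup.card_bot] at hK5
    omega
  have h4 : ∃ g ∈ G, g ≠ 1 ∧ (∀ p ∈ ({c} : Finset α), g p = p) ∧ g x = x := by
    obtain ⟨κ, hκ⟩ := (Subgroup.ne_bot_iff_exists_ne_one).mp hKne
    have hκK := (hmemK (κ : Equiv.Perm α)).mp κ.2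
    refine ⟨(κ : Equiv.Perm α), hκK.1, fun h => hκ (Subtype.ext h), fun p hp => ?_, hκK.2.2⟩
    rw [Finset.mem_singleton.mp hp]; exact hκK.2.1
  obtain ⟨F, hFG, hFfix, hFtr, hFfree, hFnorm, -⟩ := hKer G {c} x h1 h2 h3 h4
  have hFc : ∀ f ∈ F, f c = c := fun f hf => hFfix f hf c (Finset.mem_singleton_self c)
  have hFxc : ∀ f ∈ F, f x ≠ c := by
    intro f hf h
    have h' : f x = f c := by rw [hFc f hf]; exact h
    exact hcx (f.injective h').symm
  -- `|F| = 6`
  have hF6 : Nat.card F = 6 := by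
    have hbij : Function.Bijective (fun f : F =>
        (⟨(f : Equiv.Perm α) x, hFxc f f.2⟩ : {y : α // y ≠ c})) := by
      constructor
      · intro f f' h
        have h' : (f : Equiv.Perm α) x = (f' : Equiv.Perm α) x := congrArg Subtype.val h
        have h1' : ((f' : Equiv.Perm α)⁻¹ * (f : Equiv.Perm α)) x = x := by
          rw [Equiv.Perm.mul_apply, h']
          simp
        have h2' := hFfree _ (F.mul_mem (F.inv_mem f'.2) f.2) h1'
        exact Subtype.ext (inv_mul_eq_one.mp h2').symm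
      · rintro ⟨y, hy⟩
        obtain ⟨f, hf, hfx⟩ := hFtr y (fun h => hy (Finset.mem_singleton.mp h))
        exact ⟨⟨f, hf⟩, Subtype.ext hfx⟩
    rw [Nat.card_congr (Equiv.ofBijective _ hbij), Nat.card_eq_fintype_card,
      Fintype.card_subtype, Finset.filter_ne', Finset.card_erase_of_mem (Finset.mem_univ c),
      Finset.card_univ, hn]
  -- `K` normalises `F` and acts freely on `F ∖ {1}`
  have hKF : ∀ κ ∈ K, ∀ f ∈ F, κ * f * κ⁻¹ ∈ F := by
    intro κ hκ f hf
    have hκK := (hmemK κ).mp hκ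
    refine hFnorm κ hκK.1 (fun p hp => ?_) f hf
    rw [Finset.mem_singleton.mp hp, hκK.2.1]
    exact Finset.mem_singleton_self c
  have hfpf : ∀ κ ∈ K, ∀ f ∈ F, f ≠ 1 → κ * f * κ⁻¹ = f → κ = 1 := by
    intro κ hκ f hf hf1 heq
    have hκK := (hmemK κ).mp hκ
    have hκix : κ⁻¹ x = x := by rw [Equiv.Perm.inv_eq_iff_eq]; exact hκK.2.2.symm
    have hfix : κ (f x) = f x := by
      have h := congrArg (fun σ : Equiv.Perm α => σ x) heq
      simp only [Equiv.Perm.mul_apply] at h
      rwa [hκix] at h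
    have hfx : x ≠ f x := fun h' => hf1 (hFfree f hf h'.symm)
    have hfc : c ≠ f x := fun h' => hFxc f hf h'.symm
    have hc3 : ({c, x, f x} : Finset α).card = 3 := by
      rw [Finset.card_eq_three]; exact ⟨c, x, f x, hcx, hfc, hfx, rfl⟩
    apply hTriv {c, x, f x} hc3 κ hκK.1
    intro a ha
    simp only [Finset.mem_insert, Finset.mem_singleton] at ha
    rcases ha with ha | ha | ha
    · rw [ha]; exact hκK.2.1
    · rw [ha]; exact hκK.2.2
    · rw [ha]; exact hfix
  -- Cauchy
  have hfinF : Finite F := inferInstance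
  obtain ⟨f₂, hf₂⟩ := exists_prime_orderOf_dvd_card' (G := F) 2 (by rw [hF6]; norm_num)
  obtain ⟨f₃, hf₃⟩ := exists_prime_orderOf_dvd_card' (G := F) 3 (by rw [hF6]; norm_num)
  have hf₂1 : (f₂ : Equiv.Perm α) ≠ 1 := by
    intro h
    have h' : f₂ = 1 := Subtype.ext h
    rw [h'] at hf₂
    simp at hf₂
  have hf₂sq : (f₂ : Equiv.Perm α) ^ 2 = 1 := by
    have h : f₂ ^ 2 = 1 := by rw [← hf₂]; exact pow_orderOf_eq_one f₂
    have h' := congrArg Subtype.val h
    simpa using h'
  -- the map `Option K → F`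
  obtain ⟨Ψ, hΨ⟩ : ∃ Ψ : Option K → F, Ψ = fun o => o.elim 1
      (fun κ => ⟨(κ : Equiv.Perm α) * f₂ * (κ : Equiv.Perm α)⁻¹, hKF κ κ.2 f₂ f₂.2⟩) :=
    ⟨_, rfl⟩
  have hΨnone : Ψ none = 1 := by rw [hΨ]; rfl
  have hΨsome : ∀ κ : K, ((Ψ (some κ) : F) : Equiv.Perm α) =
      (κ : Equiv.Perm α) * f₂ * (κ : Equiv.Perm α)⁻¹ := by
    intro κ; rw [hΨ]; rfl
  have hΨinj : Function.Injective Ψ := by
    intro o o' h
    rcases o with _ | κ <;> rcases o' with _ | κ'
    · rfl
    · exfalso
      have h' := congrArg Subtype.val h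
      rw [hΨnone, hΨsome] at h'
      exact hf₂1 (conj_eq_one_iff.mp h'.symm)
    · exfalso
      have h' := congrArg Subtype.val h
      rw [hΨnone, hΨsome] at h'
      exact hf₂1 (conj_eq_one_iff.mp h')
    · have h' := congrArg Subtype.val h
      rw [hΨsome, hΨsome] at h'
      have h'' : ((κ' : Equiv.Perm α)⁻¹ * (κ : Equiv.Perm α)) * f₂ *
          ((κ' : Equiv.Perm α)⁻¹ * (κ : Equiv.Perm α))⁻¹ = f₂ := by
        calc ((κ' : Equiv.Perm α)⁻¹ * (κ : Equiv.Perm α)) * f₂ *
            ((κ' : Equiv.Perm α)⁻¹ * (κ : Equiv.Perm α))⁻¹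
            = (κ' : Equiv.Perm α)⁻¹ * ((κ : Equiv.Perm α) * f₂ * (κ : Equiv.Perm α)⁻¹) *
              (κ' : Equiv.Perm α) := by group
          _ = (κ' : Equiv.Perm α)⁻¹ * ((κ' : Equiv.Perm α) * f₂ * (κ' : Equiv.Perm α)⁻¹) *
              (κ' : Equiv.Perm α) := by rw [h']
          _ = f₂ := by group
      have h1' := hfpf _ (K.mul_mem (K.inv_mem κ'.2) κ.2) f₂ f₂.2 hf₂1 h''
      have h2' : (κ : Equiv.Perm α) = (κ' : Equiv.Perm α) := (inv_mul_eq_one.mp h1').symm
      rw [Subtype.ext h2']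
  have hΨbij : Function.Bijective Ψ := by
    apply hΨinj.bijective_of_nat_card_le
    rw [Finite.card_option, hK5, hF6]
  obtain ⟨o, ho⟩ := hΨbij.2 f₃
  rcases o with _ | κ
  · rw [hΨnone] at ho
    rw [← ho] at hf₃
    simp at hf₃
  · have h := hΨsome κ
    rw [ho] at h
    have hsq : (f₃ : Equiv.Perm α) ^ 2 = 1 := by
      rw [h, conj_pow, hf₂sq]; group
    have hsq' : f₃ ^ 2 = 1 := Subtype.ext (by simpa using hsq)
    have hdvd := orderOf_dvd_of_pow_eq_one hsq'
    rw [hf₃] at hdvd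
    omega

end Cfsg.Agent.Lib.Helper59.LW
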